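import Cfsg.Agent.CGT.Act

set_option autoImplicit false
set_option Elab.async false
set_option maxRecDepth 100000
set_option linter.all false

namespace Cfsg.Agent.HSC
open Cfsg.Agent.CGT

noncomputable def qRR : List (List ℕ) := [[4, 4], [6, 6], [8, 8], [0, 0, 0], [3, 3, 3, 3], [2, 0, 2, 0, 2, 0, 2, 0], [2, 0, 3, 0, 2, 0, 3, 0], [1, 2, 2, 1, 3, 3, 1, 3, 3], [0, 4, 0, 4, 0, 4, 0, 4], [4, 1, 4, 0, 2, 4, 0, 4, 2], [2, 4, 3, 4, 0, 2, 4, 3, 4, 0], [4, 2, 4, 2, 4, 2, 4, 2, 4, 2], [2, 4, 3, 0, 2, 4, 3, 0, 2, 4, 3, 0], [4, 2, 6, 0, 6, 1, 6, 1, 2, 0], [1, 3, 6, 0, 6, 2, 0, 2, 6, 1, 6, 3], [6, 0, 6, 2, 0, 4, 2, 6, 1, 6, 0], [0, 6, 1, 2, 0, 6, 1, 4, 0, 6, 1, 3], [4, 0, 6, 0, 3, 6, 1, 4, 1, 6, 1, 3], [6, 0, 6, 4, 0, 3, 4, 6, 1,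 6, 2], [3, 4, 6, 1, 8, 6, 8, 0, 6, 0, 2, 4], [6, 3, 6, 3, 8, 0, 2, 6, 8, 4, 2, 0], [2, 2, 1, 2, 8, 4, 6, 0, 6, 8, 6, 4], [1, 6, 4, 6, 0, 6, 1, 6, 4, 6, 0, 6], [8, 2, 1, 2, 1, 8, 2, 6, 8, 4, 8, 6, 3], [1, 2, 2, 8, 0, 8, 4, 0, 8, 0, 8, 2, 8, 6, 3, 4]]

end Cfsg.Agent.HSC
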