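import Cfsg.Agent.Mult.Slices
import Cfsg.Agent.HSC.Mulc2D

set_option autoImplicit false
set_option Elab.async false
set_option maxRecDepth 100000
set_option linter.all false

namespace Cfsg.Agent.HSC
open Cfsg.Agent.CGT

open Cfsg.Agent.Mult

set_option Elab.async false
theorem mulc2_p0 : holdsB 9 mulc2_ns (takeL 25 (dropL 0 qRR)) = true := by decide +kernel
theorem mulc2_m0 : monB 2 mulc2_ns mulc2_C mulc2_U qRR mulc2_a 0 25 = true := by decide +kernel
theorem mulc2_i : invB mulc2_ns mulc2_U qRR mulc2_a 25 = true := by decide +kernel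

end Cfsg.Agent.HSC
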